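import Mathlib
import Cfsg.Prelude.Def_KGroupFacts
set_option linter.all false

/-!
# Stem extensions of metacyclic groups: the upper bound

If `G` is generated by `x`, `y` with `x ^ m = 1`, `y x y⁻¹ = x ^ r`, `y ^ n = x ^ t`, and `σ : Γ → G` is a
stem extension, then `Γ' = ⟨c⟩`, `c = [b, a]` for lifts `a`, `b` of `x`, `y`, and the order of `c` divides
`m`, `t` and `1 + r + ⋯ + r ^ (n - 1)`.
-/

set_option autoImplicit false

open scoped commutatorElement

namespace Cfsg.Agent.H489

open Subgroup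

/-- If `Γ` is generated by `a`, `b` and central elements, `c = [b, a]` commutes with `a` and `b` maps `c` to a
power of `c`, `c` of finite order, then `Γ' = ⟨c⟩`. -/
theorem commutator_eq_zpowers {Γ : Type*} [Group Γ] (a b c : Γ) (Z : Subgroup Γ)
    (hZ : Z ≤ center Γ) (hgen : closure {a, b} ⊔ Z = ⊤) (hc : ⁅b, a⁆ = c) (hca : Commute c a)
    (r : ℕ) (hcb : b * c * b⁻¹ = c ^ r) (hfin : IsOfFinOrder c) :
    commutator Γ = zpowers c := by
  have hfinC : Finite (zpowers c) := finite_zpowers.mpr hfin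
  have hgen' : ∀ S : Subgroup Γ, a ∈ S → b ∈ S → Z ≤ S → S = ⊤ := by
    intro S ha hb hS
    rw [eq_top_iff, ← hgen]
    refine sup_le ?_ hS
    rw [closure_le]
    rintro x (rfl | rfl)
    · exact ha
    · exact hb
  have hnorm : normalizer ((zpowers c : Subgroup Γ) : Set Γ) = ⊤ := by
    apply hgen'
    · rw [mem_normalizer_iff]
      intro h
      rw [mem_zpowers_iff, mem_zpowers_iff]
      constructor
      · rintro ⟨k, rfl⟩
        exact ⟨k, by rw [← (hca.zpow_left k).eq, mul_inv_cancel_right]⟩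
      · rintro ⟨k, hk⟩
        refine ⟨k, ?_⟩
        have : h = a⁻¹ * c ^ k * a := by rw [hk]; group
        rw [this, mul_assoc, (hca.zpow_left k).eq, inv_mul_cancel_left]
    · have : Finite (((zpowers c : Subgroup Γ) : Set Γ)) := hfinC
      apply mem_normalizer_fintype
      rintro _ ⟨k, rfl⟩
      refine ⟨r * k, ?_⟩
      show c ^ ((r : ℤ) * k) = b * c ^ k * b⁻¹
      rw [← conj_zpow, hcb, ← zpow_natCast, ← zpow_mul]
    · intro z hz
      have hz' := mem_center_iff.mp (hZ hz)
      rw [mem_normalizer_iff]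
      intro h
      rw [← hz' h, mul_inv_cancel_right]
  have hN : (zpowers c).Normal := normalizer_eq_top_iff.mp hnorm
  apply le_antisymm
  · rw [← Normal.quotient_commutative_iff_commutator_le]
    set π := QuotientGroup.mk' (zpowers c) with hπ
    have hab : π b * π a = π a * π b := by
      rw [← commutatorElement_eq_one_iff_mul_comm, ← map_commutatorElement, hc,
        QuotientGroup.mk'_apply, QuotientGroup.eq_one_iff]
      exact mem_zpowers c
    have hpz : ∀ z ∈ Z, ∀ x, π z * π x = π x * π z := by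
      intro z hz x
      rw [← map_mul, ← map_mul, mem_center_iff.mp (hZ hz) x]
    have h1 : ∀ x, π x * π a = π a * π x := by
      have := hgen' ((centralizer {π a}).comap π) ?_ ?_ ?_
      · intro x
        have hx : x ∈ (centralizer {π a}).comap π := by rw [this]; trivial
        rw [mem_comap, mem_centralizer_singleton_iff] at hx
        exact hx
      · rw [mem_comap, mem_centralizer_singleton_iff]
      · rw [mem_comap, mem_centralizer_singleton_iff]
        exact hab
      · intro z hz
        rw [mem_comap, mem_centralizer_singleton_iff]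
        exact hpz z hz a
    have h2 : ∀ x, π x * π b = π b * π x := by
      have := hgen' ((centralizer {π b}).comap π) ?_ ?_ ?_
      · intro x
        have hx : x ∈ (centralizer {π b}).comap π := by rw [this]; trivial
        rw [mem_comap, mem_centralizer_singleton_iff] at hx
        exact hx
      · rw [mem_comap, mem_centralizer_singleton_iff]
        exact hab.symm
      · rw [mem_comap, mem_centralizer_singleton_iff]
      · intro z hz
        rw [mem_comap, mem_centralizer_singleton_iff]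
        exact hpz z hz b
    have h3 : (center (Γ ⧸ zpowers c)).comap π = ⊤ := by
      apply hgen'
      · rw [mem_comap, mem_center_iff]
        intro g
        obtain ⟨x, rfl⟩ := QuotientGroup.mk'_surjective _ g
        exact h1 x
      · rw [mem_comap, mem_center_iff]
        intro g
        obtain ⟨x, rfl⟩ := QuotientGroup.mk'_surjective _ g
        exact h2 x
      · intro z hz
        rw [mem_comap, mem_center_iff]
        intro g
        obtain ⟨x, rfl⟩ := QuotientGroup.mk'_surjective _ g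
        exact (hpz z hz x).symm
    refine ⟨⟨?_⟩⟩
    intro x y
    obtain ⟨x, rfl⟩ := QuotientGroup.mk'_surjective _ x
    have hx : x ∈ (center (Γ ⧸ zpowers c)).comap π := by rw [h3]; trivial
    rw [mem_comap, mem_center_iff] at hx
    exact (hx y).symm
  · rw [zpowers_le, ← hc]
    exact commutator_mem_commutator (mem_top b) (mem_top a)

/-- Relations in a central extension of a metacyclic group. -/
theorem orderOf_dvd_aux {Γ : Type*} [Group Γ] (a b : Γ) (m n r t : ℕ) (hr : 0 < r)
    (hm : a ^ m ∈ center Γ) (hz : b * a * b⁻¹ * (a ^ r)⁻¹ ∈ center Γ)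
    (hn : b ^ n * (a ^ t)⁻¹ ∈ center Γ) :
    Commute ⁅b, a⁆ a ∧ b * ⁅b, a⁆ * b⁻¹ = ⁅b, a⁆ ^ r ∧ ⁅b, a⁆ ^ m = 1 ∧ ⁅b, a⁆ ^ t = 1 ∧
      ⁅b, a⁆ ^ (∑ i ∈ Finset.range n, r ^ i) = 1 := by
  obtain ⟨q, rfl⟩ : ∃ q, r = q + 1 := ⟨r - 1, by omega⟩
  set z := b * a * b⁻¹ * (a ^ (q + 1))⁻¹ with hzdef
  have hzc : ∀ x, Commute z x := fun x => (mem_center_iff.mp hz x).symm
  have hbab : b * a * b⁻¹ = z * a ^ (q + 1) := by rw [hzdef, inv_mul_cancel_right]
  set c := ⁅b, a⁆ with hcdef
  have hcz : c = z * a ^ q := by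
    have h1 : c = (b * a * b⁻¹) * a⁻¹ := by rw [hcdef, commutatorElement_def]
    rw [h1, hbab, pow_succ, ← mul_assoc, mul_inv_cancel_right]
  have hca : Commute c a := by
    rw [hcz]
    exact (hzc a).mul_left ((Commute.refl a).pow_left q)
  have hbab' : b * a * b⁻¹ = c * a := by
    rw [hcdef, commutatorElement_def, inv_mul_cancel_right]
  have hpow : ∀ k : ℕ, b * a ^ k * b⁻¹ = c ^ k * a ^ k := by
    intro k
    rw [← conj_pow, hbab', hca.mul_pow]
  have hcb : b * c * b⁻¹ = c ^ (q + 1) := by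
    have h1 : b * c * b⁻¹ = z * (b * a ^ q * b⁻¹) := by
      rw [hcz]
      rw [← mul_assoc, ← (hzc b).eq]
      group
    rw [h1, hpow, pow_succ, ← mul_assoc, (hzc _).eq, mul_assoc, ← hcz]
  have hcomm : ∀ k : ℕ, Commute b (a ^ k) → c ^ k = 1 := by
    intro k hk
    have h1 := hpow k
    rw [hk.eq, mul_inv_cancel_right] at h1
    exact (mul_eq_right.mp h1.symm)
  refine ⟨hca, hcb, hcomm m ?_, hcomm t ?_, ?_⟩
  · exact mem_center_iff.mp hm b
  · set w := b ^ n * (a ^ t)⁻¹ with hw
    have hwc := mem_center_iff.mp hn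
    have h1 : a ^ t = w⁻¹ * b ^ n := by rw [hw]; group
    rw [h1]
    have h2 : Commute b w := hwc b
    exact h2.inv_right.mul_right ((Commute.refl b).pow_right n)
  · have hj : ∀ j : ℕ, b ^ j * a * (b ^ j)⁻¹ = c ^ (∑ i ∈ Finset.range j, (q + 1) ^ i) * a := by
      intro j
      induction j with
      | zero => simp
      | succ j ih =>
        have h1 : b ^ (j + 1) * a * (b ^ (j + 1))⁻¹ = b * (b ^ j * a * (b ^ j)⁻¹) * b⁻¹ := by
          rw [pow_succ']; group
        rw [h1, ih, geom_sum_succ, pow_add, pow_one]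
        have h2 : b * (c ^ (∑ i ∈ Finset.range j, (q + 1) ^ i) * a) * b⁻¹
            = (b * c * b⁻¹) ^ (∑ i ∈ Finset.range j, (q + 1) ^ i) * (b * a * b⁻¹) := by
          rw [conj_pow]; group
        rw [h2, hcb, hbab', ← pow_mul, mul_assoc]
    have h1 := hj n
    have h2 : Commute (b ^ n) a := by
      set w := b ^ n * (a ^ t)⁻¹ with hw
      have hwc := mem_center_iff.mp hn
      have h1 : b ^ n = w * a ^ t := by rw [hw]; group
      rw [h1]
      have h2 : Commute a w := hwc a
      exact h2.symm.mul_left ((Commute.refl a).pow_left t)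
    rw [h2.eq, mul_inv_cancel_right] at h1
    exact (mul_eq_right.mp h1.symm)

/-- A cyclic group whose order divides `k` is a quotient of `ZMod k`. -/
theorem exists_surj_of_isCyclic {K : Type*} [Group K] [IsCyclic K] (k : ℕ) (h : Nat.card K ∣ k) :
    ∃ π : Multiplicative (ZMod k) →* K, Function.Surjective π := by
  have e := zmodCyclicMulEquiv (G := K) inferInstance
  refine ⟨e.toMonoidHom.comp (AddMonoidHom.toMultiplicative
    ((ZMod.castHom h (ZMod (Nat.card K))).toAddMonoidHom)), ?_⟩
  apply Function.Surjective.comp e.surjective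
  intro x
  obtain ⟨y, hy⟩ := ZMod.castHom_surjective h (Multiplicative.toAdd x)
  exact ⟨Multiplicative.ofAdd y, by
    show Multiplicative.ofAdd _ = _
    rw [show (ZMod.castHom h (ZMod (Nat.card K))).toAddMonoidHom (Multiplicative.toAdd (Multiplicative.ofAdd y)) = Multiplicative.toAdd x from hy]
    rfl⟩

/-- **Upper bound** for a stem extension of a metacyclic group. -/
theorem upper {Γ G : Type*} [Group Γ] [Finite Γ] [Group G] (σ : Γ →* G)
    (hσ : Function.Surjective σ ∧ σ.ker ≤ center Γ ∧ σ.ker ≤ commutator Γ) (x y : G)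
    (hgen : closure {x, y} = ⊤) (m n r t : ℕ) (hr : 0 < r) (hm : x ^ m = 1)
    (hn : y ^ n = x ^ t) (hxy : y * x * y⁻¹ = x ^ r) :
    IsCyclic σ.ker ∧ Nat.card σ.ker * orderOf ⁅y, x⁆ ∣ m ∧ Nat.card σ.ker * orderOf ⁅y, x⁆ ∣ t ∧
      Nat.card σ.ker * orderOf ⁅y, x⁆ ∣ ∑ i ∈ Finset.range n, r ^ i := by
  obtain ⟨hsurj, hcen, hcom⟩ := hσ
  obtain ⟨a, rfl⟩ := hsurj x
  obtain ⟨b, rfl⟩ := hsurj y
  obtain ⟨hca, hcb, h1, h2, h3⟩ := orderOf_dvd_aux a b m n r t hr
    (hcen (by rw [MonoidHom.mem_ker, map_pow, hm]))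
    (hcen (by rw [MonoidHom.mem_ker, map_mul, map_mul, map_mul, map_inv, map_inv, map_pow, hxy,
      mul_inv_cancel]))
    (hcen (by rw [MonoidHom.mem_ker, map_mul, map_inv, map_pow, map_pow, hn, mul_inv_cancel]))
  have hG : closure {a, b} ⊔ σ.ker = ⊤ := by
    rw [← comap_map_eq, MonoidHom.map_closure, Set.image_pair, hgen, comap_top]
  have hcomm : commutator Γ = zpowers ⁅b, a⁆ :=
    commutator_eq_zpowers a b _ σ.ker hcen hG rfl hca r hcb (isOfFinOrder_of_finite _)
  rw [hcomm] at hcom
  have hcard : Nat.card σ.ker * orderOf ⁅σ b, σ a⁆ = orderOf ⁅b, a⁆ := by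
    have h4 := relIndex_mul_relIndex ⊥ σ.ker (zpowers ⁅b, a⁆) bot_le hcom
    rw [relIndex_bot_left, relIndex_bot_left, relIndex_ker, MonoidHom.map_zpowers, Nat.card_zpowers,
      Nat.card_zpowers, map_commutatorElement] at h4
    exact h4
  refine ⟨?_, ?_, ?_, ?_⟩
  · have : IsCyclic (zpowers ⁅b, a⁆) := inferInstance
    exact isCyclic_of_injective (inclusion hcom) (inclusion_injective hcom)
  · rw [hcard]; exact orderOf_dvd_of_pow_eq_one h1
  · rw [hcard]; exact orderOf_dvd_of_pow_eq_one h2
  · rw [hcard]; exact orderOf_dvd_of_pow_eq_one h3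

end Cfsg.Agent.H489
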